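import Cfsg.Agent.LargeFischer28.Derive
import Cfsg.Agent.LargeFischer45.FrameA
import Cfsg.Agent.LargeFischer85.TwoOrbits

/-!
Large Fischer type: the classes of the involutions of `Q` in the model, and the local facts.
-/

set_option autoImplicit false

namespace CfsgLib.LargeFischer20

open Cfsg CfsgLib.LargeFischer85

variable {G : Type*} [Group G] [Finite G] {z : G}
  {Q : Subgroup (Subgroup.centralizer ({z} : Set G))} [Q.Normal]

/-- The model together with the classes. -/
theorem exists_model_class (hF : IsOfLargeFischerTypeAt z Q) :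
    ∃ (pr : ↥Q → Fin 4096) (act : (↥(Subgroup.centralizer ({z} : Set G)) ⧸ Q) →* Equiv.Perm (Fin 4096)),
      LargeFischer28.Model z Q pr act ∧ LargeFischer45.ClassData z Q pr := by
  obtain ⟨pr', act', hM, q, pr, act, Mb, Cb, φ, cl, hA, hfr, hk, hone⟩ :=
    LargeFischer28.exists_model_frame hF
  have hne : ∀ a : ↥Q, pr' a ≠ 0 → ((a : ↥(Subgroup.centralizer ({z} : Set G))) : G) ≠ z :=
    fun a h e => h ((hM.pr_zero a).2 (Or.inr e))
  refine ⟨pr', act', hM, fun a h0 hs => ?_, fun a b ha hb => ?_⟩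
  · rw [LargeFischer88.isConj_iff_inTwo hF hA hfr hk a (hne a h0), hone]
    refine ⟨fun h => h.2.2, fun h => ⟨fun e => h0 ((hM.pr_zero a).2 ?_), ?_, h⟩⟩
    · refine (hA.pr_zero a).1 ?_
      rw [← φ.apply_symm_apply (pr a), e, hfr.map_zero]
    · rw [hfr.sing_iff, Equiv.apply_symm_apply, hA.pr_sq]
      exact (hM.pr_sq a).1 hs
  · rw [hone] at ha hb
    obtain ⟨_, ⟨k, -, rfl⟩, hk'⟩ := hk.one_trans _ _ ha hb
    have hb0 : pr b ≠ 0 := fun e => by
      rw [e, ← hfr.map_zero, Equiv.symm_apply_apply] at hb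
      revert hb
      rcases (by decide : ∀ c : ZMod 3, c = 0 ∨ c = 1 ∨ c = 2) cl with rfl | rfl | rfl <;>
        decide +kernel
    obtain ⟨h, hh⟩ := exists_conj_of_frame hF hA hb0 hk'
    exact isConj_iff.2 ⟨(h : G), congrArg Subtype.val hh⟩

/-- The local facts from the hypothesis. -/
theorem exists_facts (hF : IsOfLargeFischerTypeAt z Q) :
    ∃ A, LargeFischer45.Facts z Q A := by
  obtain ⟨pr, act, hM, hc⟩ := exists_model_class hF
  exact LargeFischer45.exists_facts_of_model hF hM hc

end CfsgLib.LargeFischer20
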